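import Cfsg.Agent.H201.BlockMain

/-!
# Systems of groups with block decompositions: two types of blocks of the same dimension (helper201)

For the orthogonal groups: the minimal blocks of a given dimension are of type `+` or `-`.
-/

set_option autoImplicit false
open Subgroup
open Cfsg.Agent.H630.NH

namespace Cfsg.Agent.H201.BlockSys

universe u v

namespace Sys

variable {r : ℕ} {S : Sys.{u, v} r}

/-- One atom. -/
theorem delta1 {π : Set ℕ} (c c' : S.I) (hπ : ∀ s ∈ π, Good r s) (hc : Cond π (S.G c)) {s t : ℕ} (hs : s ∈ π)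
    (ht : t ∈ π) (hst : s ≠ t) (hd : S.Dec (S.M t) c' c) (h0 : S.N (S.M s) (S.M t) = 0) :
    S.N (S.M s) c ≤ S.N (S.M s) c' := by
  by_contra hlt
  obtain ⟨x, hx, hx1⟩ := exists_elem (S := S) (hπ t ht)
  have h1 : (S.β hd (x, 1)) ^ t = 1 := by
    rw [← map_pow, Prod.pow_mk, hx, one_pow]
    exact map_one _
  have h2 := hc t ht s hs (Ne.symm hst) (S.β hd (x, 1)) (exists_order (hπ t ht).1 h1)
  have h3 := index_atom (hπ s hs) (hπ t ht) c c' hd x hx hx1 h2
  obtain ⟨g1, g2, g3⟩ := hπ s hs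
  have f1 := S.fac s g1 g2 g3 c
  have f2 := S.fac s g1 g2 g3 c'
  have f3 := S.fac s g1 g2 g3 (S.M t)
  have f4 := fac_le (centralizer ({x} : Set (S.G (S.M t)))) s
  rw [h0, Nat.factorial_zero, Nat.factorization_one, zero_mul] at f3
  have f5 : (S.N (S.M s) c').factorial.factorization s ≤ (S.N (S.M s) c).factorial.factorization s :=
    (Nat.factorization_le_iff_dvd (Nat.factorial_ne_zero _) (Nat.factorial_ne_zero _)).2
      (Nat.factorial_dvd_factorial (by omega)) s
  have f6 : (S.N (S.M s) c' + 1) * S.v s ≤ S.N (S.M s) c * S.v s := Nat.mul_le_mul_right _ (by omega)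
  have f7 := S.v_pos s g1 g2 g3
  rw [add_mul] at f6
  have f8 : ((0 : ℕ →₀ ℕ) s) = 0 := rfl
  omega

/-- Two atoms. -/
theorem delta2 {π : Set ℕ} (c c' c'' : S.I) (hπ : ∀ s ∈ π, Good r s) (hc : Cond π (S.G c)) {s t : ℕ} (hs : s ∈ π)
    (ht : t ∈ π) (hst : s ≠ t) (hd : S.Dec (S.M t) c' c) (hd' : S.Dec (S.M t) c'' c')
    (h0 : S.N (S.M s) (S.M t) = 0) (hk : ∃ k : (ZMod t)ˣ, k ∉ S.H t) :
    S.N (S.M s) c ≤ S.N (S.M s) c'' := by
  have hps : Fact s.Prime := ⟨(hπ s hs).1⟩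
  have hpt : Fact t.Prime := ⟨(hπ t ht).1⟩
  by_contra hlt
  obtain ⟨k, hk⟩ := hk
  obtain ⟨x, hx, hx1⟩ := exists_elem (S := S) (hπ t ht)
  have hkpos : 0 < (k : ZMod t).val := by
    rw [Nat.pos_iff_ne_zero, Ne, ZMod.val_eq_zero]
    exact k.ne_zero
  set x2 := x ^ (k : ZMod t).val with hx2
  have hx2t : x2 ^ t = 1 := by rw [hx2, ← pow_mul, mul_comm, pow_mul, hx, one_pow]
  have hx21 : x2 ≠ 1 := by
    intro h
    rw [hx2] at h
    have h4 := orderOf_dvd_of_pow_eq_one h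
    rw [orderOf_eq_prime hx hx1] at h4
    have h5 := Nat.le_of_dvd hkpos h4
    have h6 := ZMod.val_lt (k : ZMod t)
    omega
  have hd1 : Disjoint (S.E x2) (S.E (1 : S.G c'')) := disjoint_one (hπ t ht) hx2t hx21 c''
  have hd2 : Disjoint (S.E x) (S.E (S.β hd' (x2, 1))) := by
    rw [S.E_β, Set.disjoint_union_right]
    exact ⟨disjoint_pow (hπ t ht) hx hx1 k hk, disjoint_one (hπ t ht) hx hx1 c''⟩
  set y : S.G c := S.β hd (x, S.β hd' (x2, 1)) with hy
  have h1 : y ^ t = 1 := by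
    rw [hy, ← map_pow, Prod.pow_mk, hx, ← map_pow, Prod.pow_mk, hx2t, one_pow,
      show ((1 : S.G (S.M t)), (1 : S.G c'')) = 1 from rfl, map_one]
    exact map_one _
  have h2 := hc t ht s hs (Ne.symm hst) y (exists_order (hπ t ht).1 h1)
  have hcd : Nat.card (centralizer ({y} : Set (S.G c))) = Nat.card (centralizer ({x} : Set (S.G (S.M t)))) *
      (Nat.card (centralizer ({x2} : Set (S.G (S.M t)))) * Nat.card (centralizer ({(1 : S.G c'')} : Set (S.G c'')))) := by
    rw [hy, card_centralizer_β hd x _ hd2, card_centralizer_β hd' x2 1 hd1]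
  have hf : (Nat.card (centralizer ({y} : Set (S.G c)))).factorization s ≤
      (Nat.card (S.G (S.M t))).factorization s + ((Nat.card (S.G (S.M t))).factorization s +
        (Nat.card (S.G c'')).factorization s) := by
    rw [hcd, Nat.factorization_mul Nat.card_pos.ne' (Nat.mul_pos Nat.card_pos Nat.card_pos).ne',
      Nat.factorization_mul Nat.card_pos.ne' Nat.card_pos.ne', Finsupp.add_apply, Finsupp.add_apply]
    exact Nat.add_le_add (fac_le _ _) (Nat.add_le_add (fac_le _ _) (fac_le _ _))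
  obtain ⟨g1, g2, g3⟩ := hπ s hs
  have f1 := S.fac s g1 g2 g3 c
  have f2 := S.fac s g1 g2 g3 c''
  have f3 := S.fac s g1 g2 g3 (S.M t)
  rw [fac_index (centralizer ({y} : Set (S.G c))) s, Nat.factorization_eq_zero_of_not_dvd h2, add_zero] at f1
  rw [h0, Nat.factorial_zero, Nat.factorization_one, zero_mul] at f3
  have f5 : (S.N (S.M s) c'').factorial.factorization s ≤ (S.N (S.M s) c).factorial.factorization s :=
    (Nat.factorization_le_iff_dvd (Nat.factorial_ne_zero _) (Nat.factorial_ne_zero _)).2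
      (Nat.factorial_dvd_factorial (by omega)) s
  have f6 : (S.N (S.M s) c'' + 1) * S.v s ≤ S.N (S.M s) c * S.v s := Nat.mul_le_mul_right _ (by omega)
  have f7 := S.v_pos s g1 g2 g3
  rw [add_mul] at f6
  have f8 : ((0 : ℕ →₀ ℕ) s) = 0 := rfl
  omega

/-- Exponents outside `H t` exist, unless `t - 1` is the dimension of the minimal block. -/
theorem exists_not_mem' {t : ℕ} (ht : Good r t) (hne : S.dim (S.M t) ≠ t - 1) : ∃ k : (ZMod t)ˣ, k ∉ S.H t := by
  have hpt : Fact t.Prime := ⟨ht.1⟩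
  by_contra h
  have h1 : S.H t = ⊤ := by
    rw [eq_top_iff]
    intro k _
    by_contra hk
    exact h ⟨k, hk⟩
  have h2 := S.H_card t ht.1 ht.2.1 ht.2.2
  rw [h1, card_top, Nat.card_eq_fintype_card (α := (ZMod t)ˣ), ZMod.card_units] at h2
  exact hne h2.symm

/-- The possible decompositions for two blocks `a`, `b` of the same dimension. -/
def Alt (S : Sys.{u, v} r) (a b c : S.I) : Prop :=
  (∃ c', S.Dec b c' c ∧ S.N a c' < S.N a c) ∨
  (∃ c', S.Dec a c' c ∧ S.N b c' < S.N b c) ∨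
  (S.N a c = 1 ∧ S.N b c = 1 ∧ ∃ c' c'', S.Dec a c' c ∧ S.N a c' = 0 ∧ S.N b c' = 1 ∧ S.Dec b c'' c ∧ S.N b c'' = 0) ∨
  ((∃ c' c'', S.Dec b c' c ∧ S.Dec b c'' c' ∧ S.N a c'' < S.N a c) ∧
    (∃ c' c'', S.Dec a c' c ∧ S.Dec a c'' c' ∧ S.N b c'' < S.N b c))

/-- **The rows, with two types of blocks.** -/
theorem exists_abelian_two (c : S.I)
    (h2 : ∀ s t, Good r s → Good r t → S.dim (S.M s) = S.dim (S.M t) → S.M s ≠ S.M t →
      (∀ u, Good r u → S.dim (S.M u) = S.dim (S.M s) → S.M u = S.M s ∨ S.M u = S.M t) ∧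
      S.N (S.M s) (S.M t) = 0 ∧
      (S.N (S.M s) c ≠ 0 → S.N (S.M t) c ≠ 0 → Alt S (S.M s) (S.M t) c))
    (π : Set ℕ) (hπ : ∀ s ∈ π, Good r s) (hd : ∀ s ∈ π, s ∣ Nat.card (S.G c)) (hnt : π.Nontrivial)
    (hc : Cond π (S.G c)) :
    ∃ T : Subgroup (S.G c), (∀ x ∈ T, ∀ y ∈ T, x * y = y * x) ∧ ∀ s ∈ π, ¬ s ∣ T.index := by
  have hN : ∀ s ∈ π, S.N (S.M s) c ≠ 0 := fun s hs => (dvd_iff (hπ s hs)).1 (hd s hs)
  have hdim : ∀ s ∈ π, ∀ t ∈ π, S.dim (S.M s) = S.dim (S.M t) := fun s hs t ht => dim_eq c hπ hN hc hs ht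
  by_cases hM : ∀ s ∈ π, ∀ t ∈ π, S.M s = S.M t
  · -- only one type
    obtain ⟨t, ht, t', ht', htt⟩ := hnt
    have hlt : ∀ s ∈ π, S.N (S.M t) c < s := by
      intro s hs
      rw [← hM s hs t ht]
      by_cases h : s = t
      · subst h
        exact lt_of_cond c hπ hc hs ht' htt (hM _ hs _ ht')
      · exact lt_of_cond c hπ hc hs ht h (hM s hs t ht)
    have hg := hπ t ht
    obtain ⟨c', hc', hN'⟩ := S.split1 t hg.1 hg.2.1 hg.2.2 c (hN t ht)
    obtain ⟨x, hx, hx1⟩ := exists_elem (S := S) hg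
    exact gamma (centralizer ({x} : Set (S.G (S.M t)))) (centralizer_comm hg hx hx1) c π
      (fun s hs => ⟨hπ s hs, hM s hs t ht, hlt s hs,
        torus_index c c' hπ hc ht hc' hN' hx hx1 hs (hM s hs t ht) (hlt s hs)⟩)
      ⟨t, ht⟩
  · push Not at hM
    obtain ⟨s, hs, t, ht, hMst⟩ := hM
    have hst : s ≠ t := fun h => hMst (by rw [h])
    obtain ⟨hu, h0, hA⟩ := h2 s t (hπ s hs) (hπ t ht) (hdim s hs t ht) hMst
    obtain ⟨-, h0', -⟩ := h2 t s (hπ t ht) (hπ s hs) (hdim t ht s hs) (Ne.symm hMst)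
    rcases hA (hN s hs) (hN t ht) with ⟨c', hd1, hlt⟩ | ⟨c', hd1, hlt⟩ | ⟨n1, n2, c', c'', hd1, n3, n4, hd2, n5⟩ |
        ⟨⟨c', c'', hd1, hd2, hlt⟩, ⟨e', e'', he1, he2, hlt2⟩⟩
    · have := delta1 c c' hπ hc hs ht hst hd1 h0
      omega
    · have := delta1 c c' hπ hc ht hs (Ne.symm hst) hd1 h0'
      omega
    · -- the torus
      obtain ⟨x, hx, hx1⟩ := exists_elem (S := S) (hπ s hs)
      obtain ⟨y, hy, hy1⟩ := exists_elem (S := S) (hπ t ht)
      have hone : ∀ u ∈ π, 1 < u := fun u hu => (hπ u hu).1.one_lt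
      set π1 : Set ℕ := {u ∈ π | S.M u = S.M t} with hπ1
      obtain ⟨T', hT', hi'⟩ := gamma (centralizer ({y} : Set (S.G (S.M t)))) (centralizer_comm (hπ t ht) hy hy1) c' π1
        (fun u hu => ⟨hπ u hu.1, hu.2, by rw [n4]; exact hone u hu.1,
          torus_index c c'' hπ hc ht hd2 (by rw [n5, n2]) hy hy1 hu.1 hu.2 (by rw [n2]; exact hone u hu.1)⟩)
        ⟨t, ht, rfl⟩
      have hcx := centralizer_comm (hπ s hs) hx hx1
      refine ⟨((centralizer ({x} : Set (S.G (S.M s)))).prod T').map (S.β hd1), ?_, ?_⟩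
      · rintro _ ⟨⟨u1, w1⟩, h1, rfl⟩ _ ⟨⟨u2, w2⟩, h2, rfl⟩
        rw [← map_mul, ← map_mul]
        congr 1
        exact Prod.ext (hcx _ (mem_prod.1 h1).1 _ (mem_prod.1 h2).1) (hT' _ (mem_prod.1 h1).2 _ (mem_prod.1 h2).2)
      · intro u huπ hdvd
        obtain ⟨g1, g2, g3⟩ := hπ u huπ
        have f1 := S.fac u g1 g2 g3 c
        have f2 := S.fac u g1 g2 g3 c'
        have f3 := S.fac u g1 g2 g3 (S.M s)
        have f4 := fac_index (((centralizer ({x} : Set (S.G (S.M s)))).prod T').map (S.β hd1)) u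
        have f5 : (Nat.card (((centralizer ({x} : Set (S.G (S.M s)))).prod T').map (S.β hd1))).factorization u =
            (Nat.card (centralizer ({x} : Set (S.G (S.M s))))).factorization u + (Nat.card T').factorization u := by
          rw [card_map_of_injective (S.β_inj hd1), Nat.card_congr (Subgroup.prodEquiv _ _).toEquiv, Nat.card_prod,
            Nat.factorization_mul Nat.card_pos.ne' Nat.card_pos.ne', Finsupp.add_apply]
        have f6 := g1.factorization_pos_of_dvd index_ne_zero_of_finite hdvd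
        have z1 := fact_zero g1 g1.one_lt
        have z0 : (Nat.factorial 0).factorization u = 0 := fact_zero g1 g1.pos
        have f7 := fac_index (centralizer ({x} : Set (S.G (S.M s)))) u
        have f8 := fac_index T' u
        have hMs := S.N_M s (hπ s hs).1 (hπ s hs).2.1 (hπ s hs).2.2
        rcases hu u (hπ u huπ) (hdim u huπ s hs) with hMu | hMu
        · rw [hMu, n1, z1, one_mul] at f1
          rw [hMu, n3, z0, zero_mul] at f2
          rw [hMu, hMs, z1, one_mul] at f3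
          have h5 := torus_index c c' hπ hc hs hd1 (by rw [n3, n1]) hx hx1 huπ hMu (by rw [n1]; exact hone u huπ)
          have h6 := Nat.factorization_eq_zero_of_not_dvd h5
          omega
        · rw [hMu, n2, z1, one_mul] at f1
          rw [hMu, n4, z1, one_mul] at f2
          rw [hMu, h0', z0, zero_mul] at f3
          have h5 := hi' u ⟨huπ, hMu⟩
          have h6 := Nat.factorization_eq_zero_of_not_dvd h5
          omega
    · -- two atoms
      by_cases hk : S.dim (S.M t) = t - 1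
      · have hk' : S.dim (S.M s) ≠ s - 1 := by
          rw [hdim s hs t ht, hk]
          have := (hπ t ht).1.one_lt
          have := (hπ s hs).1.one_lt
          omega
        have := delta2 c e' e'' hπ hc ht hs (Ne.symm hst) he1 he2 h0' (exists_not_mem' (hπ s hs) hk')
        omega
      · have := delta2 c c' c'' hπ hc hs ht hst hd1 hd2 h0 (exists_not_mem' (hπ t ht) hk)
        omega

theorem crossRow_two (c : S.I)
    (h2 : ∀ s t, Good r s → Good r t → S.dim (S.M s) = S.dim (S.M t) → S.M s ≠ S.M t →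
      (∀ u, Good r u → S.dim (S.M u) = S.dim (S.M s) → S.M u = S.M s ∨ S.M u = S.M t) ∧
      S.N (S.M s) (S.M t) = 0 ∧
      (S.N (S.M s) c ≠ 0 → S.N (S.M t) c ≠ 0 → Alt S (S.M s) (S.M t) c)) : CrossRow r (S.G c) := by
  intro π hπ hnt hc
  obtain ⟨T, hT, hi⟩ := exists_abelian_two c h2 π (fun s hs => ⟨(hπ s hs).1, (hπ s hs).2.1, (hπ s hs).2.2.1⟩)
    (fun s hs => (hπ s hs).2.2.2) hnt hc
  exact ⟨T, isMulCommutative_of hT, hi⟩

end Sys

end Cfsg.Agent.H201.BlockSys
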