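import Cfsg.Agent.H201.RowSU
import Cfsg.Agent.LieClassical.SympCount

/-!
# The rows of the symplectic groups (helper201)
-/

set_option autoImplicit false

namespace Cfsg.Agent.H201.RowSp

open Matrix Cfsg.Agent.H201.MatSys Cfsg.Agent.H201.MatSpec Cfsg.Agent.H630.NH Cfsg.Agent.H201.RowSU

/-- the exponents `q`, `-1` -/
theorem card_Hs {q : ℤ} {s : ℕ} [Fact s.Prime] (h2 : s ≠ 2) (h : ¬ (s : ℤ) ∣ q) :
    Nat.card (Hs {q, -1} s) = 2 * orderOf ((q ^ 2 : ℤ) : ZMod s) := by
  have hs : s.Prime := Fact.out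
  have h0 : (q : ZMod s) ≠ 0 := fun h' => h ((ZMod.intCast_zmod_eq_zero_iff_dvd _ _).1 h')
  set u : (ZMod s)ˣ := Units.mk0 _ h0 with hu
  have hcl : Hs {q, -1} s = Subgroup.zpowers u ⊔ Subgroup.zpowers (-1) := by
    unfold Hs
    rw [Subgroup.zpowers_eq_closure, Subgroup.zpowers_eq_closure, ← Subgroup.closure_union]
    congr 1
    ext x
    simp only [Set.mem_ofPred_eq, Set.mem_union, Set.mem_singleton_iff, Set.mem_insert_iff]
    constructor
    · rintro ⟨c, rfl | rfl, hx⟩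
      · left
        exact Units.ext hx
      · right
        apply Units.ext
        rw [hx]
        simp
    · rintro (rfl | rfl)
      · exact ⟨q, Or.inl rfl, rfl⟩
      · exact ⟨-1, Or.inr rfl, by simp⟩
  have h3 : Fact (2 < s) := ⟨lt_of_le_of_ne hs.two_le (Ne.symm h2)⟩
  have hneg : (-1 : (ZMod s)ˣ) ≠ 1 := by
    intro hh
    have := congrArg (fun z : (ZMod s)ˣ => (z : ZMod s)) hh
    simp only [Units.val_neg, Units.val_one] at this
    exact ZMod.neg_one_ne_one this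
  have hneg2 : orderOf (-1 : (ZMod s)ˣ) = 2 := by
    have hp2 : Fact (Nat.Prime 2) := ⟨Nat.prime_two⟩
    exact orderOf_eq_prime (by rw [neg_one_sq]) hneg
  have hord : orderOf ((q ^ 2 : ℤ) : ZMod s) = orderOf (u ^ 2) := by
    rw [← orderOf_units]
    congr 1
    push_cast
    rw [hu, Units.val_mk0]
  have hpos : 0 < orderOf u := orderOf_pos u
  rw [hcl, hord]
  by_cases hev : Even (orderOf u)
  · obtain ⟨a, ha⟩ := hev
    have h4 : u ^ a = -1 := by
      have h5 : (u ^ a) ^ 2 = 1 := by rw [← pow_mul, show a * 2 = orderOf u by omega, pow_orderOf_eq_one]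
      have h6 : u ^ a ≠ 1 := by
        intro h7
        have := Nat.le_of_dvd (by omega) (orderOf_dvd_of_pow_eq_one h7)
        omega
      have h8 : ((u ^ a : (ZMod s)ˣ) : ZMod s) ^ 2 = 1 := by
        rw [← Units.val_pow_eq_pow_val, h5, Units.val_one]
      rcases sq_eq_one_iff.1 h8 with h9 | h9
      · exact absurd (Units.ext h9) h6
      · apply Units.ext
        rw [h9, Units.val_neg, Units.val_one]
    have h5 : Subgroup.zpowers (-1 : (ZMod s)ˣ) ≤ Subgroup.zpowers u := by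
      rw [Subgroup.zpowers_le, ← h4]
      exact Subgroup.pow_mem _ (Subgroup.mem_zpowers u) a
    rw [sup_eq_left.2 h5, Nat.card_zpowers, orderOf_pow, ha]
    have h6 : Nat.gcd (a + a) 2 = 2 := by
      rw [Nat.gcd_eq_right]
      omega
    rw [h6]
    omega
  · have hodd : Odd (orderOf u) := Nat.not_even_iff_odd.1 hev
    have hcop : Nat.Coprime 2 (orderOf u) := Nat.coprime_two_left.2 hodd
    have h5 : Subgroup.zpowers u ⊔ Subgroup.zpowers (-1) = Subgroup.zpowers (-u) := by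
      apply le_antisymm
      · rw [sup_le_iff, Subgroup.zpowers_le, Subgroup.zpowers_le]
        constructor
        · have h6 : u = (-u) ^ (orderOf u + 1) := by
            rw [hodd.add_one.neg_pow, pow_succ, pow_orderOf_eq_one, one_mul]
          have h7 : (-u) ^ (orderOf u + 1) ∈ Subgroup.zpowers (-u) :=
            Subgroup.pow_mem _ (Subgroup.mem_zpowers _) _
          rwa [← h6] at h7
        · have h6 : (-1 : (ZMod s)ˣ) = (-u) ^ (orderOf u) := by
            rw [hodd.neg_pow, pow_orderOf_eq_one]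
          rw [h6]
          exact Subgroup.pow_mem _ (Subgroup.mem_zpowers _) _
      · rw [Subgroup.zpowers_le, ← neg_one_mul u]
        exact Subgroup.mul_mem _ ((le_sup_right : Subgroup.zpowers (-1) ≤ Subgroup.zpowers u ⊔ _)
          (Subgroup.mem_zpowers _)) ((le_sup_left : Subgroup.zpowers u ≤ Subgroup.zpowers u ⊔ _)
          (Subgroup.mem_zpowers _))
    have h6 : orderOf (-u) = 2 * orderOf u := by
      rw [← neg_one_mul u, (Commute.all (-1 : (ZMod s)ˣ) u).orderOf_mul_eq_mul_orderOf_of_coprime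
        (by rw [hneg2]; exact hcop), hneg2]
    rw [h5, Nat.card_zpowers, h6, orderOf_pow, hcop.symm.gcd_eq_one, Nat.div_one]

variable {F : Type} [Field F]

/-- the symplectic group as a subgroup of the general linear group -/
def spGL (F : Type) [Field F] (l : Type) [Fintype l] [DecidableEq l] : Subgroup (GL (l ⊕ l) F) :=
  { (Matrix.symplecticGroup l F).comap (Units.coeHom (Matrix (l ⊕ l) (l ⊕ l) F)) with
    inv_mem' := by
      intro a ha
      have h1 : (a : Matrix (l ⊕ l) (l ⊕ l) F) ∈ Matrix.symplecticGroup l F := ha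
      have h2 := ((⟨(a : Matrix (l ⊕ l) (l ⊕ l) F), h1⟩ : Matrix.symplecticGroup l F)⁻¹).2
      rw [SymplecticGroup.coe_inv'] at h2
      show ((a⁻¹ : GL (l ⊕ l) F) : Matrix (l ⊕ l) (l ⊕ l) F) ∈ Matrix.symplecticGroup l F
      rw [Matrix.coe_units_inv]
      exact h2 }

theorem mem_spGL {l : Type} [Fintype l] [DecidableEq l] {g : GL (l ⊕ l) F} :
    g ∈ spGL F l ↔ (g : Matrix (l ⊕ l) (l ⊕ l) F) * J l F * (g : Matrix (l ⊕ l) (l ⊕ l) F)ᵀ = J l F := by
  rw [← SymplecticGroup.mem_iff]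
  exact Iff.rfl

/-- the same group -/
noncomputable def spEquiv (F : Type) [Field F] (l : Type) [Fintype l] [DecidableEq l] :
    spGL F l ≃* Matrix.symplecticGroup l F where
  toFun g := ⟨((g : GL (l ⊕ l) F) : Matrix (l ⊕ l) (l ⊕ l) F), by
    rw [SymplecticGroup.mem_iff]
    exact mem_spGL.1 g.2⟩
  invFun g := ⟨⟨(g : Matrix (l ⊕ l) (l ⊕ l) F), ((g⁻¹ : Matrix.symplecticGroup l F) : Matrix (l ⊕ l) (l ⊕ l) F),
    congrArg Subtype.val (mul_inv_cancel g), congrArg Subtype.val (inv_mul_cancel g)⟩, by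
      rw [mem_spGL]
      exact SymplecticGroup.mem_iff.1 g.2⟩
  left_inv g := Subtype.ext (Units.ext rfl)
  right_inv g := rfl
  map_mul' x y := rfl

/-- the reindexing for block sums -/
def eqv (a b : ℕ) : (Fin a ⊕ Fin a) ⊕ (Fin b ⊕ Fin b) ≃ Fin (a + b) ⊕ Fin (a + b) :=
  (Equiv.sumSumSumComm (Fin a) (Fin a) (Fin b) (Fin b)).trans (Equiv.sumCongr finSumFinEquiv finSumFinEquiv)

theorem J_submatrix (a b : ℕ) : (J (Fin (a + b)) F).submatrix (eqv a b) (eqv a b) =
    fromBlocks (J (Fin a) F) 0 0 (J (Fin b) F) := by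
  ext i j
  rcases i with (i | i) | (i | i) <;> rcases j with (j | j) | (j | j) <;>
    simp [J, eqv, Matrix.one_apply, finSumFinEquiv, Fin.ext_iff]
  all_goals
    intro h
    omega

theorem dec (a b : ℕ) : (natFm (fun n => Fin n ⊕ Fin n) (fun n => spGL F (Fin n))).Dec a b (a + b) := by
  refine ⟨bcEquiv (eqv a b), fun x y => ?_⟩
  rw [mem_spGL, mem_spGL, mem_spGL, BC.coe_gl, bcEquiv_hom, Matrix.transpose_submatrix]
  have hJ : J (Fin (a + b)) F = (fromBlocks (J (Fin a) F) 0 0 (J (Fin b) F)).submatrix (eqv a b).symm (eqv a b).symm := by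
    rw [← J_submatrix, Matrix.submatrix_submatrix, Equiv.self_comp_symm, Matrix.submatrix_id_id]
  rw [hJ, Matrix.submatrix_mul_equiv, Matrix.submatrix_mul_equiv, fromBlocks_transpose, Matrix.transpose_zero,
    Matrix.transpose_zero, fromBlocks_multiply, fromBlocks_multiply]
  simp only [Matrix.mul_zero, Matrix.zero_mul, add_zero, zero_add]
  constructor
  · rintro ⟨h2, h3⟩
    rw [h2, h3]
  · intro h2
    have h3 := congrArg (fun A => Matrix.submatrix A (eqv a b) (eqv a b)) h2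
    simp only [Matrix.submatrix_submatrix, Equiv.symm_comp_self, Matrix.submatrix_id_id] at h3
    rw [fromBlocks_inj] at h3
    exact ⟨h3.1, h3.2.2.2⟩

theorem closure_exp [Fintype F] (n : ℕ) (x : spGL F (Fin n)) :
    ∀ z ∈ sp (algebraMap F (AlgebraicClosure F)) ((x : GL (Fin n ⊕ Fin n) F) : Matrix (Fin n ⊕ Fin n) (Fin n ⊕ Fin n) F),
      ∀ c ∈ ({(Fintype.card F : ℤ), -1} : Set ℤ), z ^ c ∈
        sp (algebraMap F (AlgebraicClosure F)) ((x : GL (Fin n ⊕ Fin n) F) : Matrix (Fin n ⊕ Fin n) (Fin n ⊕ Fin n) F) := by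
  intro z hz c hc
  rcases hc with rfl | hc
  · rw [zpow_natCast]
    exact sp_frob _ hz
  · rw [Set.mem_singleton_iff] at hc
    rw [hc, _root_.zpow_neg_one]
    set A := ((x : GL (Fin n ⊕ Fin n) F) : Matrix (Fin n ⊕ Fin n) (Fin n ⊕ Fin n) F) with hA
    set B := (((x : GL (Fin n ⊕ Fin n) F)⁻¹ : GL (Fin n ⊕ Fin n) F) : Matrix (Fin n ⊕ Fin n) (Fin n ⊕ Fin n) F) with hB
    have hAB : A * B = 1 := Units.mul_inv _
    have hBA : B * A = 1 := Units.inv_mul _
    have h1 := (sp_inv hAB hz).2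
    have h2 : A * J (Fin n) F * Aᵀ = J (Fin n) F := mem_spGL.1 x.2
    have h3 : J (Fin n) F * Aᵀ = B * J (Fin n) F := by
      have h5 : B * (A * J (Fin n) F * Aᵀ) = B * J (Fin n) F := by rw [h2]
      rw [← h5, ← Matrix.mul_assoc, ← Matrix.mul_assoc, hBA, Matrix.one_mul]
    have h4 : J (Fin n) F * -(J (Fin n) F) = 1 := by
      rw [Matrix.mul_neg, J_squared, neg_neg]
    rw [← sp_similar h4 h3, sp_transpose] at h1
    exact h1

theorem natAbs_prod (Q : ℕ) (hQ : 1 ≤ Q) (n : ℕ) :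
    ∏ i ∈ Finset.range n, (Q ^ (2 * (i + 1)) - 1) = (∏ i ∈ Finset.range n, (((Q : ℤ) ^ 2) ^ (i + 1) - 1)).natAbs := by
  rw [← Int.natAbsHom_apply, map_prod]
  refine Finset.prod_congr rfl fun i _ => ?_
  rw [Int.natAbsHom_apply, ← pow_mul]
  have h1 : 1 ≤ Q ^ (2 * (i + 1)) := Nat.one_le_pow _ _ (by omega)
  have : ((Q : ℤ) ^ (2 * (i + 1)) - 1) = ((Q ^ (2 * (i + 1)) - 1 : ℕ) : ℤ) := by
    rw [Nat.cast_sub h1]
    push_cast
    ring
  rw [this, Int.natAbs_natCast]

/-- **The row of `Sp_{2m}(q)` in cross characteristic** -/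
theorem crossRow_Sp (r : ℕ) [Fact r.Prime] (F : Type) [Field F] [Fintype F] [CharP F r] (m : ℕ) (_hm : 1 ≤ m) :
    CrossRow r ↥(Matrix.symplecticGroup (Fin m) F) := by
  obtain ⟨k, hr, hk⟩ := FiniteField.card F r
  have hs : ∀ s : ℕ, s.Prime → s ≠ r → ¬ (s : ℤ) ∣ (Fintype.card F : ℤ) := by
    intro s hs hsr hd
    rw [Int.natCast_dvd_natCast, hk] at hd
    exact hsr ((Nat.prime_dvd_prime_iff_eq hs hr).1 (hs.dvd_of_dvd_pow hd))
  have hF1 : 1 < Fintype.card F := Fintype.one_lt_card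
  refine CrossRow.congr (spEquiv F (Fin m)) ?_
  refine natSys_crossRow (F := F) (fun n => Fin n ⊕ Fin n) (fun n => spGL F (Fin n)) r 2 two_pos
    (fun n => by rw [Fintype.card_sum, Fintype.card_fin]; omega) ((Fintype.card F : ℤ) ^ 2) ?_ ?_ dec
    {(Fintype.card F : ℤ), -1} closure_exp ?_ ?_ m
  · intro i hi h
    rw [← pow_mul] at h
    have h1 := congrArg Int.natAbs h
    rw [Int.natAbs_pow, Int.natAbs_natCast, Int.natAbs_one] at h1
    have h2 := Nat.one_lt_pow (show 2 * i ≠ 0 by omega) hF1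
    omega
  · intro s hs1 hsr hd
    exact hs s hs1 hsr (Int.Prime.dvd_pow' hs1 hd)
  · intro s hs1 hs2 hsr
    have : Fact s.Prime := ⟨hs1⟩
    exact card_Hs hs2 (hs s hs1 hsr)
  · intro n
    refine ⟨k * n ^ 2, ?_⟩
    rw [Nat.card_congr (spEquiv F (Fin n)).toEquiv, LieClassical.SympCount.card_symplecticGroup,
      natAbs_prod _ hF1.le, hk, ← pow_mul]

end Cfsg.Agent.H201.RowSp
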